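import Cfsg.Agent.Comp.MatG
import Cfsg.Agent.Comp.J3.LD

set_option autoImplicit false
set_option maxRecDepth 1000000
set_option maxHeartbeats 0
set_option Elab.async false

namespace CF.Comp.J3

theorem linL_a : linAll (tabQ 2 1 1) 87381 9 LV LA LL LCs 2 = true := by decide +kernel
theorem linL : LinOK (tabQ 2 1 1) 87381 9 2 LV LA LL :=
  ⟨⟨Lσ, by decide +kernel⟩, by decide +kernel, by decide +kernel, rfl,
    LCs, by decide +kernel, rfl, linAll_iff.1 linL_a⟩

end CF.Comp.J3
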