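import Cfsg.Agent.Comp.J3.Main
import Cfsg.Agent.Comp.J3.LK
import Cfsg.Agent.Comp.MatL

/-! The action of `3·J₃` on the lines of its 9-space. -/

set_option autoImplicit false
set_option maxRecDepth 100000

namespace CF.Comp.J3

open MulAction Cfsg.Spor Matrix

variable {F : Type*} [Field F] {ω : F} (hT : (tabQ 2 1 1).Ok (elQ 2 ω))

theorem vecL : vecOK 4 87381 9 LV Lσ = true := by decide +kernel

/-- the lines -/
noncomputable def DL : Dom (LinM (glMat (threeJ3 F ω))) 87381 := hT.linDom ε _ vecL linL.norm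

theorem rep2 : MatRep (tabQ 2 1 1) (elQ 2 ω) ε (glMat _) (evs (g3 hT) PW) 2 M2 :=
  (rep3 hT).evs (by decide +kernel) (by decide +kernel)

theorem top2 : clo (evs (g3 hT) PW) (gensW 2) = ⊤ :=
  (rep3 hT).top (glMat_inj _) (top3 hT) (g3_one hT) (rep2 hT) (fun _ h => evs_eq_one h) (us := YW)
    (by decide +kernel)

theorem repsL : Reps (DL hT) LL (evs (g3 hT) PW) :=
  let ⟨_, h1, h2, h3⟩ := linL.act
  hT.reps_lin (m := 2) ε _ vecL linL.norm (wf_of_wfAll linL.wf) rfl (fun i hi => (congrArg _ (evL_odd _ i).symm).trans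
    (((rep2 hT).eq _ (by omega)).trans (congrArg _ ((by decide +kernel :
      ∀ i < 2, nth [] M2 (2 * i + 1) = nth [] LA i) i hi)))) (fun _ h => evs_eq_one h) h1 h2 h3

theorem orbit_eq {b v : ℕ} (hb : b < 87381) (h : orb LL (gensW 2) 14 (Nat.shiftLeft 1 b) = v)
    (h1 : closedW LL (gensW 2) v = true) (h2 : tb v b = true) :
    orbIn (⊤ : Subgroup (threeJ3 F ω)) ((DL hT).pt b) = (DL hT).set v := by
  subst h
  exact top2 hT ▸ (repsL hT).orbIn_eq hb h1 h2

theorem orbit1 : orbIn (⊤ : Subgroup (threeJ3 F ω)) ((DL hT).pt 0) = (DL hT).set (ivl 0 23256) :=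
  orbit_eq hT (by decide) (by decide +kernel) (by decide +kernel) (by decide +kernel)

theorem orbit3 : orbIn (⊤ : Subgroup (threeJ3 F ω)) ((DL hT).pt 43776) = (DL hT).set (ivl 43776 87381) :=
  orbit_eq hT (by decide) (by decide +kernel) (by decide +kernel) (by decide +kernel)

/-- the parity of the number of zeros among the first `k` coordinates -/
noncomputable def xz (k : ℕ) : ℕ := Nat.rec 0 (fun k r => Nat.xor r (nth 0 (nth [] LV k) 0)) k

include hT in
theorem cube {a : ℕ} (h : a < 4) : elQ 2 ω a ^ 3 = if a = 0 then 0 else 1 := by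
  rw [← hT.pow (by revert a; decide)]
  split_ifs with h0
  · rw [h0]; exact hT.zero
  · rw [(by decide : ∀ a < 4, a ≠ 0 → (tabQ 2 1 1).pow 3 a = 1) a h h0, hT.one]

include hT in
theorem sum_cube {j : ℕ} (hj : j < 87381) {k : ℕ} (hk : k ≤ 9) :
    ∑ i ∈ Finset.range k, elQ 2 ω (hot (nth [] LV i) j) ^ 3 = k + if (xz k).testBit j then 1 else 0 := by
  have h2 : (2 : F) = 0 := by
    have := hT.mac 1 1 1 (by decide)
    rw [hT.one, show (tabQ 2 1 1).mac 1 1 1 = 0 from rfl, hT.zero] at this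
    linear_combination -this
  induction k with
  | zero => simp [xz]
  | succ k ih =>
    obtain ⟨h3, h4, -⟩ := vecOK_iff.1 vecL
    obtain ⟨-, h5, h6⟩ := hotOK_spec hj (lall_iff.1 h4 _ (nth_mem [] (h3 ▸ hk : k < LV.length)))
    rw [Finset.sum_range_succ, ih (by omega), cube hT h5, show xz (k + 1) = xz k ^^^ _ from rfl, Nat.testBit_xor]
    by_cases h7 : 0 = hot (nth [] LV k) j
    · rw [if_pos h7.symm, (h6 0).2 h7]
      cases (xz k).testBit j <;> simp
      all_goals linear_combination -h2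
    · rw [if_neg (Ne.symm h7), Bool.eq_false_iff.2 fun h => h7 ((h6 0).1 h)]
      simp [add_right_comm]

theorem mem_orbit3 [Fintype F] (hF : Fintype.card F = 4) {v : F9 → F} (hv : v ≠ 0) (h : ∑ z, v z ^ 3 = 0) :
    (F ∙ v) ∈ orbIn (⊤ : Subgroup (threeJ3 F ω)) ((DL hT).pt 43776) := by
  obtain ⟨j, hj, c, rfl⟩ := hT.exists_smul_vec ε vecL linL.norm (by rw [hF]; rfl) hv
  rw [orbit3, Units.smul_def, Submodule.span_singleton_smul_eq c.isUnit]
  refine (Dom.pt_mem_set (D := DL hT) hj).2 ?_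
  simp only [Pi.smul_apply, Units.smul_def, smul_eq_mul, mul_pow, ← Finset.mul_sum, mul_eq_zero,
    pow_eq_zero_iff (three_ne_zero), c.ne_zero, false_or, vec] at h
  rw [sum_eps ε fun k => elQ 2 ω (hot (nth [] LV k) j) ^ 3, sum_cube hT hj le_rfl,
    (by decide +kernel : xz 9 = ivl 43776 87381)] at h
  by_contra h1
  have h2 : ((2 : ℕ) : F) = 0 := (exists_omega_four hF).1.cast_eq_zero_iff 2 |>.2 dvd_rfl
  rw [if_neg h1] at h
  exact one_ne_zero (α := F) (by push_cast at h h2; linear_combination h - 4 * h2)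

theorem pt_zero : (DL hT).pt 0 = F ∙ (Pi.single (0 : F9) (1 : F) : F9 → F) := by
  refine congrArg (fun v => F ∙ v) (funext fun z => ?_)
  rw [vec, (by decide +kernel : ∀ z, hot (nth [] LV (ε z)) 0 = if z = 0 then 1 else 0), Pi.single_apply,
    apply_ite (elQ 2 ω), hT.one, hT.zero]

theorem smul_span (g : threeJ3 F ω) (v : F9 → F) : g • (show LinM (glMat (threeJ3 F ω)) from F ∙ v) =
    F ∙ ((g.1 : Matrix F9 F9 F) *ᵥ v) := by
  show Submodule.map _ _ = _
  rw [Submodule.map_span, Set.image_singleton]; rfl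

end CF.Comp.J3
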